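import Cfsg.Agent.Lib.Helper33.KS.Defs

set_option autoImplicit false

namespace Cfsg.Agent.Lib.Helper65.KS

open Subgroup MulAction Cfsg.Agent.Lib.Helper33.KS
open Cfsg.Agent.Lib.Helper22 (conjS mem_conjS conjS_mem conjS_mul conjS_one)

variable {G : Type*} [Group G] {V : Type*} [MulAction G V] {adj : V → V → Prop}
  {Q Z : V → Subgroup G}

theorem Cmt.symm' {A B : V} (h : Cmt Z A B) : Cmt Z B A := fun a ha c hc => (h c hc a ha).symm

theorem p5' (hC : Cub adj Q Z) {b : ℕ} (h5 : P5 adj Z b) : P5' adj Z b := by
  intro f l C hcrit hadj hne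
  obtain ⟨hpath, hnc⟩ := hcrit
  set f' : ℤ → V := fun i => f (2 * l + b - i) with hf'
  have hcrit' : Crit adj Z b f' l := by
    constructor
    · intro i hi1 hi2
      have := hpath (2 * l + b - i - 1) (by omega) (by omega)
      have e1 : 2 * l + (b : ℤ) - i - 1 + 1 = 2 * l + b - i := by ring
      have e2 : 2 * l + (b : ℤ) - (i + 1) = 2 * l + b - i - 1 := by ring
      rw [e1] at this
      show adj (f (2 * l + b - i)) (f (2 * l + b - (i + 1)))
      rw [e2]
      exact hC.symm this
    · intro h
      apply hnc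
      have e1 : 2 * l + (b : ℤ) - l = l + b := by ring
      have e2 : 2 * l + (b : ℤ) - (l + b) = l := by ring
      have h' : Cmt Z (f (2 * l + b - l)) (f (2 * l + b - (l + b))) := h
      rw [e1, e2] at h'
      exact Cmt.symm' h'
  have hadj' : adj C (f' l) := by
    show adj C (f (2 * l + b - l))
    have e1 : 2 * l + (b : ℤ) - l = l + b := by ring
    rw [e1]
    exact hC.symm hadj
  have hne' : C ≠ f' (l + 1) := by
    show C ≠ f (2 * l + b - (l + 1))
    have e1 : 2 * l + (b : ℤ) - (l + 1) = l + b - 1 := by ring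
    rw [e1]
    exact hne
  obtain ⟨hpath2, hnc2⟩ := h5 f' l C hcrit' hadj' hne'
  have hrel : ∀ i, Function.update f (l + b + 1) C i =
      Function.update f' (l - 1) C (2 * l + b - i) := by
    intro i
    by_cases hi : i = l + b + 1
    · subst hi
      have e1 : 2 * l + (b : ℤ) - (l + b + 1) = l - 1 := by ring
      rw [e1, Function.update_self, Function.update_self]
    · rw [Function.update_of_ne hi, Function.update_of_ne (by omega)]
      show f i = f (2 * l + b - (2 * l + b - i))
      congr 1
      ring
  constructor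
  · intro i hi1 hi2
    rw [hrel, hrel]
    have := hpath2 (2 * l + b - i - 1) (by omega) (by omega)
    have e1 : 2 * l + (b : ℤ) - i - 1 + 1 = 2 * l + b - i := by ring
    have e2 : 2 * l + (b : ℤ) - (i + 1) = 2 * l + b - i - 1 := by ring
    rw [e1] at this
    rw [e2]
    exact hC.symm this
  · intro h
    apply hnc2
    rw [hrel, hrel] at h
    have e1 : 2 * l + (b : ℤ) - (l + 1) = l - 1 + b := by ring
    have e2 : 2 * l + (b : ℤ) - (l + 1 + b) = l - 1 := by ring
    rw [e1, e2] at h
    exact Cmt.symm' h

end Cfsg.Agent.Lib.Helper65.KS
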